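import Cfsg.Agent.SameOrder.Alt
import Cfsg.Agent.Dickson.Sixty

/-!
Recognition of the alternating groups of degree four, five and six by same-order counts.
-/

set_option autoImplicit false

namespace CfsgLib.SameOrder

theorem ocount_alt {n : ℕ} (m : ℕ) (t : ℕ) (q : alternatingGroup (Fin n) → Prop) [DecidablePred q]
    (hq : ∀ g, orderOf g = m ↔ q g) (h : (Finset.univ.filter q).card = t) :
    ocount (alternatingGroup (Fin n)) m = t := by
  rw [ocount, Nat.card_congr (Equiv.subtypeEquivRight hq), Nat.card_eq_fintype_card, Fintype.card_subtype, h]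

theorem orderOf_iff_prime {G : Type*} [Group G] {p : ℕ} (hp : p.Prime) (g : G) :
    orderOf g = p ↔ g ^ p = 1 ∧ g ≠ 1 := by
  haveI : Fact p.Prime := ⟨hp⟩
  refine ⟨fun h => ⟨h ▸ pow_orderOf_eq_one g, fun e => ?_⟩, fun h => orderOf_eq_prime h.1 h.2⟩
  rw [e, orderOf_one] at h
  exact hp.ne_one h.symm

theorem orderOf_iff_four {G : Type*} [Group G] (g : G) :
    orderOf g = 4 ↔ g ^ 4 = 1 ∧ g ^ 2 ≠ 1 := by
  haveI : Fact (Nat.Prime 2) := ⟨Nat.prime_two⟩
  refine ⟨fun h => ⟨h ▸ pow_orderOf_eq_one g, fun e => ?_⟩, fun h => ?_⟩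
  · have := orderOf_dvd_of_pow_eq_one e
    rw [h] at this
    norm_num at this
  · exact orderOf_eq_prime_pow (p := 2) (n := 1) (by simpa using h.2) (by simpa using h.1)

theorem range_alt_four : ∀ g : alternatingGroup (Fin 4), g = 1 ∨ g ^ 2 = 1 ∨ g ^ 3 = 1 := by
  decide +kernel

theorem range_alt_five : ∀ g : alternatingGroup (Fin 5), g = 1 ∨ g ^ 2 = 1 ∨ g ^ 3 = 1 ∨ g ^ 5 = 1 := by
  decide +kernel

theorem range_alt_six : ∀ g : alternatingGroup (Fin 6),
    g = 1 ∨ g ^ 2 = 1 ∨ g ^ 3 = 1 ∨ g ^ 4 = 1 ∨ g ^ 5 = 1 := by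
  decide +kernel

theorem image_eq {H : Type*} [Group H] [Finite H] {d : Data}
    (horder : ∀ g : H, ∃ x ∈ d.target, orderOf g = x.1)
    (hval : ∀ x ∈ d.target, ocount H x.1 = x.2 ∧ x.2 ≠ 0)
    (hset : ∀ v, (∃ x ∈ d.target, x.2 = v) ↔ (v = 1 ∨ v = d.s2 ∨ v ∈ d.ev)) :
    ((fun m : ℕ => Nat.card {g : H // orderOf g = m}) '' Set.range (orderOf : H → ℕ)) =
      {x | x = 1 ∨ x = d.s2 ∨ x ∈ d.ev} := by
  ext v
  rw [Set.mem_setOf_eq, ← hset]
  constructor
  · rintro ⟨_, ⟨g, rfl⟩, rfl⟩
    obtain ⟨x, hx, hg⟩ := horder g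
    exact ⟨x, hx, by rw [← (hval x hx).1, hg]; rfl⟩
  · rintro ⟨x, hx, rfl⟩
    obtain ⟨h1, h2⟩ := hval x hx
    exact ⟨x.1, ocount_ne_zero_iff.1 (h1 ▸ h2), h1⟩

theorem image_four :
    ((fun m : ℕ => Nat.card {g : alternatingGroup (Fin 4) // orderOf g = m}) ''
      Set.range (orderOf : alternatingGroup (Fin 4) → ℕ)) = {x | x = 1 ∨ x = dataFour.s2 ∨ x ∈ dataFour.ev} := by
  refine image_eq (fun g => ?_) ?_ (fun v => by simp [dataFour]; omega)
  · haveI : Fact (Nat.Prime 2) := ⟨Nat.prime_two⟩
    haveI : Fact (Nat.Prime 3) := ⟨Nat.prime_three⟩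
    by_cases h1 : g = 1
    · exact ⟨(1, 1), by simp [dataFour], by rw [h1, orderOf_one]⟩
    rcases range_alt_four g with h | h | h
    · exact absurd h h1
    · exact ⟨(2, 3), by simp [dataFour], orderOf_eq_prime h h1⟩
    · exact ⟨(3, 8), by simp [dataFour], orderOf_eq_prime h h1⟩
  · simp only [dataFour, List.forall_mem_cons, List.not_mem_nil, false_implies, implies_true, and_true]
    exact ⟨⟨ocount_alt 3 8 _ (orderOf_iff_prime Nat.prime_three) (by decide +kernel), by norm_num⟩,
      ⟨ocount_alt 2 3 _ (orderOf_iff_prime Nat.prime_two) (by decide +kernel), by norm_num⟩,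
      ocount_one, one_ne_zero⟩

theorem image_five :
    ((fun m : ℕ => Nat.card {g : alternatingGroup (Fin 5) // orderOf g = m}) ''
      Set.range (orderOf : alternatingGroup (Fin 5) → ℕ)) = {x | x = 1 ∨ x = dataFive.s2 ∨ x ∈ dataFive.ev} := by
  refine image_eq (fun g => ?_) ?_ (fun v => by simp [dataFive]; omega)
  · haveI : Fact (Nat.Prime 2) := ⟨Nat.prime_two⟩
    haveI : Fact (Nat.Prime 3) := ⟨Nat.prime_three⟩
    haveI : Fact (Nat.Prime 5) := ⟨Nat.prime_five⟩
    by_cases h1 : g = 1
    · exact ⟨(1, 1), by simp [dataFive], by rw [h1, orderOf_one]⟩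
    rcases range_alt_five g with h | h | h | h
    · exact absurd h h1
    · exact ⟨(2, 15), by simp [dataFive], orderOf_eq_prime h h1⟩
    · exact ⟨(3, 20), by simp [dataFive], orderOf_eq_prime h h1⟩
    · exact ⟨(5, 24), by simp [dataFive], orderOf_eq_prime h h1⟩
  · simp only [dataFive, List.forall_mem_cons, List.not_mem_nil, false_implies, implies_true, and_true]
    exact ⟨⟨ocount_alt 3 20 _ (orderOf_iff_prime Nat.prime_three) (by decide +kernel), by norm_num⟩,
      ⟨ocount_alt 5 24 _ (orderOf_iff_prime Nat.prime_five) (by decide +kernel), by norm_num⟩,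
      ⟨ocount_alt 2 15 _ (orderOf_iff_prime Nat.prime_two) (by decide +kernel), by norm_num⟩,
      ocount_one, one_ne_zero⟩

theorem image_six :
    ((fun m : ℕ => Nat.card {g : alternatingGroup (Fin 6) // orderOf g = m}) ''
      Set.range (orderOf : alternatingGroup (Fin 6) → ℕ)) = {x | x = 1 ∨ x = dataSix.s2 ∨ x ∈ dataSix.ev} := by
  refine image_eq (fun g => ?_) ?_ (fun v => by simp [dataSix]; omega)
  · haveI : Fact (Nat.Prime 2) := ⟨Nat.prime_two⟩
    haveI : Fact (Nat.Prime 3) := ⟨Nat.prime_three⟩
    haveI : Fact (Nat.Prime 5) := ⟨Nat.prime_five⟩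
    by_cases h1 : g = 1
    · exact ⟨(1, 1), by simp [dataSix], by rw [h1, orderOf_one]⟩
    by_cases h2 : g ^ 2 = 1
    · exact ⟨(2, 45), by simp [dataSix], orderOf_eq_prime h2 h1⟩
    rcases range_alt_six g with h | h | h | h | h
    · exact absurd h h1
    · exact absurd h h2
    · exact ⟨(3, 80), by simp [dataSix], orderOf_eq_prime h h1⟩
    · exact ⟨(4, 90), by simp [dataSix], (orderOf_iff_four g).2 ⟨h, h2⟩⟩
    · exact ⟨(5, 144), by simp [dataSix], orderOf_eq_prime h h1⟩
  · simp only [dataSix, List.forall_mem_cons, List.not_mem_nil, false_implies, implies_true, and_true]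
    exact ⟨⟨ocount_alt 4 90 _ orderOf_iff_four (by decide +kernel), by norm_num⟩,
      ⟨ocount_alt 3 80 _ (orderOf_iff_prime Nat.prime_three) (by decide +kernel), by norm_num⟩,
      ⟨ocount_alt 5 144 _ (orderOf_iff_prime Nat.prime_five) (by decide +kernel), by norm_num⟩,
      ⟨ocount_alt 2 45 _ (orderOf_iff_prime Nat.prime_two) (by decide +kernel), by norm_num⟩,
      ocount_one, one_ne_zero⟩

/-- With a single Sylow subgroup, all elements of order `p` lie in it. -/
theorem ocount_le_sylow {G : Type*} [Group G] [Finite G] {p : ℕ} [Fact p.Prime]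
    (h1 : Nat.card (Sylow p G) = 1) (P : Sylow p G) : ocount G p ≤ Nat.card (P : Subgroup G) := by
  haveI : Subsingleton (Sylow p G) := (Nat.card_eq_one_iff_unique.1 h1).1
  refine Nat.card_le_card_of_injective
    (fun g => (⟨g.1, ?_⟩ : (P : Subgroup G))) fun a b hab => Subtype.ext (by
      simpa using congrArg Subtype.val hab)
  obtain ⟨Q, hQ⟩ := (IsPGroup.of_card (p := p) (n := 1)
    (show Nat.card (Subgroup.zpowers g.1) = p ^ 1 by rw [Nat.card_zpowers, g.2, pow_one])).exists_le_sylow
  rw [Subsingleton.elim P Q]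
  exact hQ (Subgroup.mem_zpowers _)

/-- The order of a Sylow subgroup when the prime divides exactly once. -/
theorem card_sylow_eq {G : Type*} [Group G] [Finite G] {p m : ℕ} [hp : Fact p.Prime]
    (h : Nat.card G = p * m) (hm : ¬ p ∣ m) (P : Sylow p G) : Nat.card (P : Subgroup G) = p := by
  have hm0 : m ≠ 0 := fun e => hm (e ▸ dvd_zero p)
  rw [P.card_eq_multiplicity, h, Nat.factorization_mul hp.out.ne_zero hm0, Finsupp.add_apply,
    hp.out.factorization_self, Nat.factorization_eq_zero_of_not_dvd hm, add_zero, pow_one]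

/-- A group of order twelve with eight elements of order three. -/
theorem equiv_four {G : Type*} [Group G] [Finite G] (h : Nat.card G = 12) (h3 : ocount G 3 = 8) :
    Nonempty (G ≃* alternatingGroup (Fin 4)) := by
  classical
  haveI : Fact (Nat.Prime 3) := ⟨Nat.prime_three⟩
  have hP : ∀ P : Sylow 3 G, Nat.card (P : Subgroup G) = 3 :=
    fun P => card_sylow_eq (m := 4) h (by norm_num) P
  have hn : Nat.card (Sylow 3 G) = 4 := by
    have h1 := card_sylow_modEq_one 3 G
    obtain ⟨P⟩ := (inferInstance : Nonempty (Sylow 3 G))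
    have h2 := P.card_dvd_index
    have h2' : (P : Subgroup G).index = 4 := by
      have := (P : Subgroup G).card_mul_index
      rw [hP, h] at this; omega
    rw [h2'] at h2
    have h4 := Nat.le_of_dvd (by norm_num) h2
    unfold Nat.ModEq at h1
    suffices Nat.card (Sylow 3 G) ≠ 1 by omega
    intro h5
    have hle := ocount_le_sylow h5 P
    rw [h3, hP] at hle
    omega
  have hnorm : ∀ P : Sylow 3 G, Subgroup.normalizer ((P : Subgroup G) : Set G) = (P : Subgroup G) := fun P => by
    refine (Subgroup.eq_of_le_of_card_ge Subgroup.le_normalizer ?_).symm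
    have h1 := (Subgroup.normalizer ((P : Subgroup G) : Set G)).card_mul_index
    rw [show (Subgroup.normalizer ((P : Subgroup G) : Set G)).index = 4 from P.card_eq_index_normalizer.symm.trans hn,
      h] at h1
    rw [hP]
    omega
  let f := MulAction.toPermHom G (Sylow 3 G)
  have hf : Function.Injective f := by
    rw [← MonoidHom.ker_eq_bot_iff, Subgroup.eq_bot_iff_forall]
    intro g hg
    have hmem : ∀ P : Sylow 3 G, g ∈ (P : Subgroup G) := fun P => by
      rw [← hnorm P]
      exact Sylow.smul_eq_iff_mem_normalizer.1 (congrArg (fun σ : Equiv.Perm (Sylow 3 G) => σ P)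
        (MonoidHom.mem_ker.1 hg))
    obtain ⟨P, Q, hPQ⟩ := Finite.one_lt_card_iff_nontrivial.1 (show 1 < Nat.card (Sylow 3 G) by omega)
    by_contra hg1
    refine hPQ (Sylow.ext ?_)
    have key : ∀ R : Sylow 3 G, Subgroup.zpowers g = (R : Subgroup G) := fun R => by
      refine Subgroup.eq_of_le_of_card_ge (Subgroup.zpowers_le.2 (hmem R)) ?_
      have hd := Subgroup.orderOf_dvd_natCard (R : Subgroup G) (hmem R)
      rw [hP] at hd ⊢
      rcases (Nat.dvd_prime Nat.prime_three).1 hd with e | e
      · exact absurd (orderOf_eq_one_iff.1 e) hg1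
      · rw [Nat.card_zpowers, e]
    rw [← key P, key Q]
  let e : Sylow 3 G ≃ Fin 4 := Finite.equivFinOfCardEq hn
  let f' : G →* Equiv.Perm (Fin 4) := e.permCongrHom.toMonoidHom.comp f
  have hf' : Function.Injective f' := e.permCongrHom.injective.comp hf
  have hidx : f'.range.index = 2 := by
    have h1 := f'.range.card_mul_index
    rw [Nat.card_congr (MonoidHom.ofInjective hf').symm.toEquiv, h, Nat.card_perm, Nat.card_fin] at h1
    norm_num [Nat.factorial] at h1
    omega
  exact ⟨(MonoidHom.ofInjective hf').trans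
    (MulEquiv.subgroupCongr (Equiv.Perm.eq_alternatingGroup_of_index_eq_two hidx))⟩

/-- A group of order 360 with the element orders of the alternating group of degree six is simple. -/
theorem simple_six {G : Type*} [Group G] [Finite G] (h : Nat.card G = 360)
    (h3 : ocount G 3 = 80) (h5 : ocount G 5 = 144) (hord : ∀ g : G, orderOf g ≤ 5) : IsSimpleGroup G := by
  classical
  haveI : Fact (Nat.Prime 5) := ⟨Nat.prime_five⟩
  haveI : Fact (Nat.Prime 3) := ⟨Nat.prime_three⟩
  haveI : Nontrivial G := Finite.one_lt_card_iff_nontrivial.1 (by omega)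
  refine ⟨fun N hN => ?_⟩
  have hcnt : ∀ p : ℕ, p.Prime → ¬ p ∣ N.index → ocount N p = ocount G p := by
    intro p hp hpi
    have hsub : ∀ g : G, orderOf g = p → g ∈ N := by
      intro g hg
      rw [← QuotientGroup.eq_one_iff, ← orderOf_eq_one_iff]
      have d1 : orderOf (g : G ⧸ N) ∣ p := hg ▸ orderOf_map_dvd (QuotientGroup.mk' N) g
      have d2 : orderOf (g : G ⧸ N) ∣ N.index := by rw [Subgroup.index]; exact orderOf_dvd_natCard _
      rcases (Nat.dvd_prime hp).1 d1 with e | e
      · exact e
      · exact absurd (e ▸ d2) hpi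
    exact Nat.card_congr
      { toFun := fun g => ⟨g.1.1, by rw [Subgroup.orderOf_coe]; exact g.2⟩
        invFun := fun g => ⟨⟨g.1, hsub _ g.2⟩, by rw [Subgroup.orderOf_mk]; exact g.2⟩
        left_inv := fun g => rfl
        right_inv := fun g => rfl }
  have hsum : ocount N 1 + ocount N 3 + ocount N 5 ≤ Nat.card N := by
    haveI := Fintype.ofFinite N
    simp only [ocount, Nat.card_eq_fintype_card, Fintype.card_subtype]
    rw [← Finset.card_union_of_disjoint (Finset.disjoint_filter.2 fun g _ a b => by omega),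
      ← Finset.card_union_of_disjoint (Finset.disjoint_union_left.2
        ⟨Finset.disjoint_filter.2 fun g _ a b => by omega, Finset.disjoint_filter.2 fun g _ a b => by omega⟩)]
    exact Finset.card_le_univ _
  rw [ocount_one] at hsum
  have hmul := N.card_mul_index
  rw [h] at hmul
  have hpos : 0 < Nat.card N := Nat.card_pos
  by_cases h5N : 5 ∣ Nat.card N
  · right
    have hd5 : ¬ 5 ∣ N.index := fun hd => by
      have := Nat.mul_dvd_mul h5N hd
      rw [hmul] at this; norm_num at this
    rw [hcnt 5 Nat.prime_five hd5, h5] at hsum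
    have hi : N.index ≤ 2 := by
      by_contra hi
      nlinarith
    have hd3 : ¬ 3 ∣ N.index := fun hd => by
      have := Nat.le_of_dvd (Nat.pos_of_ne_zero N.index_ne_zero_of_finite) hd
      omega
    rw [hcnt 3 Nat.prime_three hd3, h3] at hsum
    rw [← Subgroup.index_eq_one]
    by_contra hne
    have hi2 : N.index = 2 := by have := N.index_ne_zero_of_finite; omega
    rw [hi2] at hmul
    omega
  · left
    obtain ⟨x, hx⟩ := ocount_ne_zero_iff.1 (show ocount G 5 ≠ 0 by omega)
    have key : ∀ M : Subgroup G, M.Normal → ¬ 5 ∣ Nat.card M → Nat.card M ≡ 1 [MOD 5] := by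
      intro M hM hM5
      let φ : Subgroup.zpowers x →* MulAut M := MulAut.conjNormal.comp (Subgroup.zpowers x).subtype
      letI : MulAction (Subgroup.zpowers x) M := MulAction.compHom M φ
      have hp : IsPGroup 5 (Subgroup.zpowers x) := IsPGroup.of_card (n := 1) (by rw [Nat.card_zpowers, hx, pow_one])
      refine (hp.card_modEq_card_fixedPoints M).trans ?_
      suffices MulAction.fixedPoints (Subgroup.zpowers x) M = {1} by rw [this, Nat.card_unique]
      ext y
      rw [MulAction.mem_fixedPoints, Set.mem_singleton_iff]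
      refine ⟨fun hy => ?_, fun hy g => ?_⟩
      · have e : x * (y : G) * x⁻¹ = y := congrArg Subtype.val (hy ⟨x, Subgroup.mem_zpowers x⟩)
        have hcomm : Commute x (y : G) := mul_inv_eq_iff_eq_mul.1 e
        have hdy : orderOf (y : G) ∣ Nat.card M := by
          rw [Subgroup.orderOf_coe]; exact orderOf_dvd_natCard y
        have hcop : Nat.Coprime (orderOf x) (orderOf (y : G)) := by
          rw [hx, Nat.prime_five.coprime_iff_not_dvd]; exact fun hd => hM5 (hd.trans hdy)
        have hprod := hcomm.orderOf_mul_eq_mul_orderOf_of_coprime hcop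
        rw [hx] at hprod
        have := hord (x * y)
        have := orderOf_pos (y : G)
        exact Subtype.ext (orderOf_eq_one_iff.1 (show orderOf (y : G) = 1 by omega))
      · subst hy
        show φ g 1 = 1
        exact map_one _
    have hN1 := key N hN h5N
    have hdvd : Nat.card N ∣ 72 := by
      have : Nat.card N ∣ 5 * 72 := ⟨N.index, hmul.symm⟩
      exact ((Nat.prime_five.coprime_iff_not_dvd.2 h5N).symm).dvd_of_dvd_mul_left this
    have hle := Nat.le_of_dvd (by norm_num) hdvd
    have hcases : Nat.card N = 1 ∨ Nat.card N = 6 ∨ Nat.card N = 36 := by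
      unfold Nat.ModEq at hN1
      interval_cases hc : Nat.card N <;> simp_all
    rcases hcases with h1 | h1 | h1
    · exact Subgroup.eq_bot_of_card_eq N h1
    · exfalso
      obtain ⟨P⟩ := (inferInstance : Nonempty (Sylow 3 N))
      have hP : Nat.card (P : Subgroup N) = 3 := card_sylow_eq (m := 2) h1 (by norm_num) P
      have hi : (P : Subgroup N).index = 2 := by
        have := (P : Subgroup N).card_mul_index
        rw [hP, h1] at this; omega
      haveI : (P : Subgroup N).Normal := Subgroup.normal_of_index_eq_two hi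
      haveI := P.characteristic_of_normal inferInstance
      have hM := key ((P : Subgroup N).map N.subtype) ConjAct.normal_of_characteristic_of_normal
        (by rw [Subgroup.card_subtype, hP]; norm_num)
      rw [Subgroup.card_subtype, hP] at hM
      exact absurd hM (by decide)
    · exfalso
      have hi : N.index = 10 := by rw [h1] at hmul; omega
      rw [hcnt 3 Nat.prime_three (by rw [hi]; norm_num), h3] at hsum
      omega

end CfsgLib.SameOrder
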