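import Cfsg.Agent.SameOrder.Search

/-!
The same-order counts of the alternating groups of degree four, five and six.
-/

set_option autoImplicit false

namespace CfsgLib.SameOrder

/-- Degree four. -/
def dataFour : Data where
  s2 := 3
  ev := [8]
  pe := [(2, 2), (3, 1)]
  bigQ := 6
  D := [4, 8]
  target := [(3, 8), (2, 3), (1, 1)]
  M := [(3, 2), (6, 2), (4, 2), (12, 4)]

/-- Degree five. -/
def dataFive : Data where
  s2 := 15
  ev := [20, 24]
  pe := [(2, 4), (3, 2), (5, 1)]
  bigQ := 30
  D := [27, 4, 8, 12, 14, 16, 25, 30, 49, 108]
  target := [(3, 20), (5, 24), (2, 15), (1, 1)]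
  M := [(5, 4), (3, 2), (15, 8), (9, 6), (45, 24), (10, 4), (6, 2), (30, 8), (18, 6), (90, 24),
    (4, 2), (20, 8), (12, 4), (36, 12), (8, 4), (24, 8), (72, 24), (16, 8)]

/-- Degree six. -/
def dataSix : Data where
  s2 := 45
  ev := [80, 90, 144]
  pe := [(2, 3), (3, 2), (5, 2), (7, 1)]
  bigQ := 210
  D := [27, 4, 8, 12, 14, 16, 25, 30, 49, 108]
  target := [(4, 90), (3, 80), (5, 144), (2, 45), (1, 1)]
  M := [(7, 6), (5, 4), (35, 24), (25, 20), (3, 2), (21, 12), (15, 8), (105, 48), (75, 40), (9, 6),
    (63, 36), (45, 24), (315, 144), (14, 6), (10, 4), (70, 24), (50, 20), (6, 2), (42, 12), (30, 8),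
    (210, 48), (150, 40), (18, 6), (126, 36), (90, 24), (630, 144), (4, 2), (28, 12), (20, 8),
    (140, 48), (100, 40), (12, 4), (84, 24), (60, 16), (300, 80), (36, 12), (252, 72), (180, 48),
    (8, 4), (56, 24), (40, 16), (200, 80), (24, 8), (168, 48), (72, 24), (504, 144)]

theorem checked_four : Checked dataFour 12 9 where
  pos := by decide
  odd := by decide +kernel
  evEven := by decide +kernel
  primes := by decide +kernel
  two := by decide +kernel
  isPrime := by simp only [dataFour, List.forall_mem_cons, List.not_mem_nil, false_implies, implies_true, and_true]; norm_num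
  powers := by decide +kernel
  listed := by decide +kernel
  valid := by decide +kernel
  order := by decide +kernel
  small := by decide +kernel
  run := by decide +kernel

theorem checked_five : Checked dataFive 720 25 where
  pos := by decide
  odd := by decide +kernel
  evEven := by decide +kernel
  primes := by decide +kernel
  two := by decide +kernel
  isPrime := by simp only [dataFive, List.forall_mem_cons, List.not_mem_nil, false_implies, implies_true, and_true]; norm_num
  powers := by decide +kernel
  listed := by decide +kernel
  valid := by decide +kernel
  order := by decide +kernel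
  small := by decide +kernel
  run := by decide +kernel

theorem checked_six : Checked dataSix 12600 145 where
  pos := by decide
  odd := by decide +kernel
  evEven := by decide +kernel
  primes := by decide +kernel
  two := by decide +kernel
  isPrime := by simp only [dataSix, List.forall_mem_cons, List.not_mem_nil, false_implies, implies_true, and_true]; norm_num
  powers := by decide +kernel
  listed := by decide +kernel
  valid := by decide +kernel
  order := by decide +kernel
  small := by decide +kernel
  run := by decide +kernel

end CfsgLib.SameOrder
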