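import Mathlib
import Cfsg.Agent.Counting.Frobenius

/-!
A verified search for the element-order statistics of finite groups with prescribed values of the
same-order counts.
-/

set_option autoImplicit false

namespace CfsgLib.SameOrder

/-- Number of elements of a given order. -/
noncomputable def ocount (G : Type*) [Group G] (m : ℕ) : ℕ := Nat.card {g : G // orderOf g = m}

/-- Sum of recorded values over the keys dividing `m`. -/
def fsum : List (ℕ × ℕ) → ℕ → ℕ
  | [], _ => 0
  | x :: s, m => (if m % x.1 = 0 then x.2 else 0) + fsum s m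

/-- Sum of recorded values. -/
def total : List (ℕ × ℕ) → ℕ
  | [] => 0
  | x :: s => x.2 + total s

/-- Data of a search. -/
structure Data where
  s2 : ℕ
  ev : List ℕ
  pe : List (ℕ × ℕ)
  bigQ : ℕ
  D : List ℕ
  target : List (ℕ × ℕ)
  M : List (ℕ × ℕ)

/-- A final state is impossible. -/
def leafBad (d : Data) (s : List (ℕ × ℕ)) : Bool :=
  d.ev.any (fun v => !(s.any fun x => x.2 == v)) ||
  (d.bigQ ^ 20) % (total s) != 0 ||
  d.pe.any (fun p => (total s % p.1 == 0) != (s.any fun x => x.1 == p.1)) ||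
  s.any (fun x => total s % x.1 != 0) ||
  d.D.any (fun m => total s % m == 0 && fsum s m % m != 0)

/-- The search. -/
def search (d : Data) : ℕ → List (ℕ × ℕ) → List (ℕ × ℕ) → Bool
  | 0, _, _ => false
  | _ + 1, [], s => leafBad d s || s == d.target
  | k + 1, (m, ph) :: t, s =>
    search d k (t.filter fun x => x.1 % m != 0) s &&
      d.ev.all fun v => !(v % ph == 0 && (v + fsum s m) % m == 0) || search d k t ((m, v) :: s)

/-- No chain of prime powers of the given length. -/
def chain (d : Data) (p : ℕ) : ℕ → ℕ → ℕ → Bool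
  | 0, _, _ => false
  | k + 1, q, acc =>
    (if q = 2 then [d.s2] else d.ev.filter fun v => v % (q - q / p) == 0).all fun v =>
      (acc + v) % q != 0 || chain d p k (q * p) (acc + v)

variable {G : Type*} [Group G] [Finite G]

theorem ocount_ne_zero_iff {m : ℕ} : ocount G m ≠ 0 ↔ ∃ g : G, orderOf g = m := by
  rw [ocount, Nat.card_ne_zero]
  exact ⟨fun ⟨⟨g, hg⟩, _⟩ => ⟨g, hg⟩, fun ⟨g, hg⟩ => ⟨⟨⟨g, hg⟩⟩, inferInstance⟩⟩

theorem ocount_dvd {m k : ℕ} (h : ocount G m ≠ 0) (hk : k ∣ m) : ocount G k ≠ 0 := by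
  obtain ⟨g, rfl⟩ := ocount_ne_zero_iff.1 h
  exact ocount_ne_zero_iff.2 ⟨g ^ (orderOf g / k), orderOf_pow_orderOf_div (orderOf_pos g).ne' hk⟩

theorem ocount_one : ocount G 1 = 1 := by
  haveI : Unique {g : G // orderOf g = 1} :=
    ⟨⟨⟨1, orderOf_one⟩⟩, fun g => Subtype.ext (orderOf_eq_one_iff.mp g.2)⟩
  exact Nat.card_unique

theorem totient_dvd_ocount (m : ℕ) : m.totient ∣ ocount G m := by
  refine CfsgLib.Counting.dvd_card_of_totient _ ?_ _ (fun g hg => by rw [hg])
  intro g h hg hgh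
  rw [← Nat.card_zpowers, ← hgh, Nat.card_zpowers, hg]

theorem dvd_card_of_ocount {m : ℕ} (h : ocount G m ≠ 0) : m ∣ Nat.card G := by
  obtain ⟨g, rfl⟩ := ocount_ne_zero_iff.1 h
  exact orderOf_dvd_natCard g

theorem card_pow_eq_sum {m : ℕ} (hm : m ≠ 0) :
    Nat.card {g : G // g ^ m = 1} = ∑ k ∈ m.divisors, ocount G k := by
  classical
  haveI := Fintype.ofFinite G
  rw [Nat.card_eq_fintype_card, Fintype.card_subtype,
    Finset.card_eq_sum_card_fiberwise (f := orderOf) (t := m.divisors) (fun g hg => by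
      rw [Finset.mem_coe, Finset.mem_filter] at hg
      exact Nat.mem_divisors.mpr ⟨orderOf_dvd_of_pow_eq_one hg.2, hm⟩)]
  refine Finset.sum_congr rfl fun k hk => ?_
  rw [ocount, Nat.card_eq_fintype_card, Fintype.card_subtype, Finset.filter_filter]
  congr 1
  ext g
  simp only [Finset.mem_filter, Finset.mem_univ, true_and]
  exact ⟨fun hh => hh.2, fun hh => ⟨orderOf_dvd_iff_pow_eq_one.mp (hh ▸ Nat.dvd_of_mem_divisors hk), hh⟩⟩

theorem card_eq_sum : Nat.card G = ∑ k ∈ (Nat.card G).divisors, ocount G k := by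
  rw [← card_pow_eq_sum Nat.card_pos.ne']
  exact Nat.card_congr (Equiv.subtypeUnivEquiv fun g : G => pow_card_eq_one').symm

theorem fsum_eq_sum {s : List (ℕ × ℕ)} (m : ℕ) (hnd : (s.map Prod.fst).Nodup)
    (hs : ∀ x ∈ s, ocount G x.1 = x.2) :
    fsum s m = ∑ k ∈ (s.map Prod.fst).toFinset.filter (· ∣ m), ocount G k := by
  induction s with
  | nil => simp [fsum]
  | cons x s ih =>
    rw [List.map_cons, List.nodup_cons] at hnd
    have hn : x.1 ∉ (s.map Prod.fst).toFinset := by simpa using hnd.1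
    rw [fsum, ih hnd.2 fun y hy => hs y (List.mem_cons_of_mem _ hy), List.map_cons, List.toFinset_cons,
      Finset.filter_insert]
    by_cases h : x.1 ∣ m
    · rw [if_pos (Nat.mod_eq_zero_of_dvd h), if_pos h, Finset.sum_insert (by simp [hn]), hs x (by simp)]
    · rw [if_neg (fun e => h (Nat.dvd_of_mod_eq_zero e)), if_neg h, zero_add]

/-- The state of a search is compatible with the group. -/
structure Good (d : Data) (G : Type*) [Group G] (r s : List (ℕ × ℕ)) : Prop where
  nodup : (s.map Prod.fst).Nodup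
  val : ∀ x ∈ s, ocount G x.1 = x.2 ∧ x.2 ≠ 0
  sub : ∀ x ∈ r, x.1.totient = x.2 ∧ 2 < x.1 ∧ x.1 ∉ s.map Prod.fst
  order : r.Pairwise fun a b => ¬ b.1 ∣ a.1
  cover : ∀ k, ocount G k ≠ 0 → k ∈ s.map Prod.fst ∨ k ∈ r.map Prod.fst

theorem fsum_eq_solutions {d : Data} {r s : List (ℕ × ℕ)} (h : Good d G r s) {m : ℕ} (hm : m ≠ 0)
    (hr : ∀ x ∈ r, x.1 ∣ m → ocount G x.1 = 0) :
    fsum s m = Nat.card {g : G // g ^ m = 1} := by
  rw [card_pow_eq_sum hm, fsum_eq_sum m h.nodup fun x hx => (h.val x hx).1]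
  refine Finset.sum_subset (fun k hk => ?_) fun k hk hk' => ?_
  · exact Nat.mem_divisors.2 ⟨(Finset.mem_filter.1 hk).2, hm⟩
  · by_contra hne
    rcases h.cover k hne with hks | hkr
    · exact hk' (Finset.mem_filter.2 ⟨List.mem_toFinset.2 hks, Nat.dvd_of_mem_divisors hk⟩)
    · obtain ⟨x, hx, rfl⟩ := List.mem_map.1 hkr
      exact hne (hr x hx (Nat.dvd_of_mem_divisors hk))

theorem total_eq_fsum (s : List (ℕ × ℕ)) (n : ℕ) (h : ∀ x ∈ s, x.1 ∣ n) : total s = fsum s n := by
  induction s with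
  | nil => rfl
  | cons x s ih =>
    rw [total, fsum, ih fun y hy => h y (List.mem_cons_of_mem _ hy),
      if_pos (Nat.mod_eq_zero_of_dvd (h x (by simp)))]

theorem total_eq_card {d : Data} {s : List (ℕ × ℕ)} (h : Good d G [] s) : total s = Nat.card G := by
  rw [total_eq_fsum s (Nat.card G) fun x hx => dvd_card_of_ocount (by rw [(h.val x hx).1]; exact (h.val x hx).2),
    fsum_eq_solutions h Nat.card_pos.ne' (by simp)]
  exact Nat.card_congr (Equiv.subtypeUnivEquiv fun g : G => pow_card_eq_one')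

/-- The assumptions on the group. -/
structure Counts (d : Data) (G : Type*) [Group G] : Prop where
  even : ∀ k, 2 < k → ocount G k ≠ 0 → ocount G k ∈ d.ev
  two : ocount G 2 = d.s2
  all : ∀ v ∈ d.ev, ∃ k, ocount G k = v
  evpos : ∀ v ∈ d.ev, v ≠ 0
  primes : ∀ p, p.Prime → ocount G p ≠ 0 → p ∈ d.pe.map Prod.fst
  isPrime : ∀ x ∈ d.pe, x.1.Prime
  big : Nat.card G < 2 ^ 20
  bigQ : ∀ x ∈ d.pe, x.1 ∣ d.bigQ

theorem leaf_sound {d : Data} (hc : Counts d G) {s : List (ℕ × ℕ)} (h : Good d G [] s) :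
    leafBad d s = false := by
  have hN := total_eq_card h
  have hmem : ∀ k, ocount G k ≠ 0 ↔ k ∈ s.map Prod.fst := by
    refine fun k => ⟨fun hk => (h.cover k hk).resolve_right (by simp), fun hk => ?_⟩
    obtain ⟨x, hx, rfl⟩ := List.mem_map.1 hk
    rw [(h.val x hx).1]; exact (h.val x hx).2
  simp only [leafBad, Bool.or_eq_false_iff, hN]
  refine ⟨⟨⟨⟨?_, ?_⟩, ?_⟩, ?_⟩, ?_⟩
  · rw [List.any_eq_false]
    intro v hv
    obtain ⟨k, hk⟩ := hc.all v hv
    obtain ⟨x, hx, rfl⟩ := List.mem_map.1 ((hmem k).1 (hk ▸ hc.evpos v hv))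
    simp only [Bool.not_eq_true', List.any_eq_false, beq_iff_eq]
    exact fun hh => hh x hx ((h.val x hx).1.symm.trans hk)
  · have : Nat.card G ∣ d.bigQ ^ 20 := by
      rw [Nat.dvd_iff_prime_pow_dvd_dvd]
      intro p k hp hpk
      rcases Nat.eq_zero_or_pos k with rfl | hk
      · simp
      haveI : Fact p.Prime := ⟨hp⟩
      obtain ⟨g, hg⟩ := exists_prime_orderOf_dvd_card' p ((dvd_pow_self p hk.ne').trans hpk)
      obtain ⟨x, hx, hxp⟩ := List.mem_map.1 (hc.primes p hp (ocount_ne_zero_iff.2 ⟨g, hg⟩))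
      have hk20 : k ≤ 20 := by
        by_contra hk'
        have h1 : 2 ^ 20 ≤ p ^ k :=
          (Nat.pow_le_pow_right (by norm_num) (by omega)).trans (Nat.pow_le_pow_left hp.two_le k)
        have := Nat.le_of_dvd Nat.card_pos hpk
        have := hc.big
        omega
      exact (pow_dvd_pow_of_dvd (hxp ▸ hc.bigQ x hx) k).trans (pow_dvd_pow _ hk20)
    rw [Nat.mod_eq_zero_of_dvd this]; rfl
  · rw [List.any_eq_false]
    intro p hp
    haveI : Fact p.1.Prime := ⟨hc.isPrime p hp⟩
    rw [bne_iff_ne, ne_eq, not_not, Bool.eq_iff_iff, beq_iff_eq, List.any_eq_true]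
    simp only [beq_iff_eq]
    rw [← Nat.dvd_iff_mod_eq_zero]
    constructor
    · intro hd
      obtain ⟨g, hg⟩ := exists_prime_orderOf_dvd_card' p.1 hd
      exact List.mem_map.1 ((hmem _).1 (ocount_ne_zero_iff.2 ⟨g, hg⟩))
    · rintro ⟨x, hx, hxp⟩
      exact dvd_card_of_ocount ((hmem _).2 (List.mem_map.2 ⟨x, hx, hxp⟩))
  · rw [List.any_eq_false]
    intro x hx
    simp [Nat.mod_eq_zero_of_dvd
      (dvd_card_of_ocount ((hmem _).2 (List.mem_map.2 ⟨x, hx, rfl⟩)))]
  · rw [List.any_eq_false]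
    intro m _
    simp only [Bool.and_eq_true, beq_iff_eq, bne_iff_ne, ne_eq, not_and, not_not]
    intro hm
    have hd : m ∣ Nat.card G := Nat.dvd_of_mod_eq_zero hm
    have hm0 : m ≠ 0 := fun e => Nat.card_pos.ne' (zero_dvd_iff.1 (e ▸ hd))
    rw [fsum_eq_solutions h hm0 (by simp)]
    exact Nat.mod_eq_zero_of_dvd (CfsgLib.Counting.card_pow_eq_one_dvd hd)

theorem search_sound {d : Data} (hc : Counts d G) :
    ∀ (k : ℕ) (r s : List (ℕ × ℕ)), search d k r s = true → Good d G r s →
      Good d G [] d.target := by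
  intro k
  induction k with
  | zero => intro r s hs; simp [search] at hs
  | succ k ih =>
    intro r s hs h
    rcases r with _ | ⟨⟨m, ph⟩, t⟩
    · simp only [search, Bool.or_eq_true, beq_iff_eq] at hs
      rcases hs with hb | rfl
      · rw [leaf_sound hc h] at hb; cases hb
      · exact h
    simp only [search, Bool.and_eq_true, List.all_eq_true] at hs
    obtain ⟨hskip, htake⟩ := hs
    have ho := List.pairwise_cons.1 h.order
    obtain ⟨hph, hm2, hms⟩ := h.sub (m, ph) (by simp)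
    by_cases hm : ocount G m = 0
    · refine ih _ _ hskip ⟨h.nodup, h.val, fun x hx => h.sub x (List.mem_cons_of_mem _ (List.mem_of_mem_filter hx)),
        ho.2.sublist List.filter_sublist, fun j hj => ?_⟩
      rcases h.cover j hj with hjs | hjr
      · exact Or.inl hjs
      · right
        obtain ⟨x, hx, rfl⟩ := List.mem_map.1 hjr
        have hnd : ¬ m ∣ x.1 := fun hd => ocount_dvd hj hd hm
        rcases List.mem_cons.1 hx with rfl | hx
        · exact absurd dvd_rfl hnd
        · exact List.mem_map.2 ⟨x, List.mem_filter.2 ⟨hx, by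
            simpa using fun e : x.1 % m = 0 => hnd (Nat.dvd_of_mod_eq_zero e)⟩, rfl⟩
    · have hmt : ∀ x ∈ t, x.1 ≠ m := fun x hx e => ho.1 x hx (e ▸ dvd_rfl)
      have hg' : Good d G t ((m, ocount G m) :: s) := by
        refine ⟨?_, ?_, fun x hx => ?_, ho.2, fun j hj => ?_⟩
        · rw [List.map_cons, List.nodup_cons]; exact ⟨hms, h.nodup⟩
        · intro x hx
          rcases List.mem_cons.1 hx with rfl | hx
          · exact ⟨rfl, hm⟩
          · exact h.val x hx
        · obtain ⟨a, b, c⟩ := h.sub x (List.mem_cons_of_mem _ hx)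
          exact ⟨a, b, by rw [List.map_cons, List.mem_cons]; exact fun e => e.elim (hmt x hx) c⟩
        · rcases h.cover j hj with hjs | hjr
          · exact Or.inl (List.mem_cons_of_mem _ hjs)
          · rw [List.map_cons, List.mem_cons] at hjr
            rcases hjr with rfl | hjr
            · exact Or.inl (by simp)
            · exact Or.inr hjr
      have hv := htake _ (hc.even m hm2 hm)
      rcases Bool.or_eq_true _ _ ▸ hv with hneg | hrec
      · exfalso
        simp only [Bool.not_eq_true', Bool.and_eq_false_iff, beq_eq_false_iff_ne] at hneg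
        rcases hneg with h1 | h1
        · exact h1 (Nat.mod_eq_zero_of_dvd (by
            have := totient_dvd_ocount (G := G) m
            rwa [show m.totient = ph from hph] at this))
        · refine h1 (Nat.mod_eq_zero_of_dvd ?_)
          have e := fsum_eq_solutions hg' (m := m) (by omega) fun x hx hd => absurd hd (ho.1 x hx)
          rw [fsum, if_pos (Nat.mod_self m)] at e
          rw [e]
          exact CfsgLib.Counting.card_pow_eq_one_dvd (dvd_card_of_ocount hm)
      · exact ih _ _ hrec hg'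

theorem chain_sound {d : Data} (h2 : ocount G 2 = d.s2)
    (hev : ∀ k, 2 < k → ocount G k ≠ 0 → ocount G k ∈ d.ev) {p : ℕ} (hp : p.Prime) :
    ∀ k j acc : ℕ, chain d p k (p ^ (j + 1)) acc = true →
      acc = ∑ i ∈ Finset.range (j + 1), ocount G (p ^ i) → ocount G (p ^ (j + k)) = 0 := by
  intro k
  induction k with
  | zero => intro j acc h; simp [chain] at h
  | succ k ih =>
    intro j acc h hacc
    by_contra hne
    have hq : ocount G (p ^ (j + 1)) ≠ 0 := ocount_dvd hne (pow_dvd_pow p (by omega))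
    simp only [chain, List.all_eq_true, Bool.or_eq_true, bne_iff_ne] at h
    have hmem : ocount G (p ^ (j + 1)) ∈
        (if p ^ (j + 1) = 2 then [d.s2] else d.ev.filter fun v => v % (p ^ (j + 1) - p ^ (j + 1) / p) == 0) := by
      split_ifs with h2'
      · rw [h2', h2]; simp
      · have h3 : 2 < p ^ (j + 1) := by
          have := hp.two_le.trans (Nat.le_self_pow (by omega : j + 1 ≠ 0) p)
          omega
        refine List.mem_filter.2 ⟨hev _ h3 hq, beq_iff_eq.2 (Nat.mod_eq_zero_of_dvd ?_)⟩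
        have := totient_dvd_ocount (G := G) (p ^ (j + 1))
        rwa [Nat.totient_prime_pow hp (by omega), Nat.add_sub_cancel,
          show p ^ j * (p - 1) = p ^ (j + 1) - p ^ (j + 1) / p by
            rw [Nat.pow_succ, Nat.mul_div_left _ hp.pos, Nat.mul_sub, mul_one]] at this
    have hsum : acc + ocount G (p ^ (j + 1)) = ∑ i ∈ Finset.range (j + 2), ocount G (p ^ i) := by
      rw [Finset.sum_range_succ _ (j + 1), hacc]
    rcases h _ hmem with h1 | h1
    · refine h1 (Nat.mod_eq_zero_of_dvd ?_)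
      have := CfsgLib.Counting.card_pow_eq_one_dvd (dvd_card_of_ocount hq)
      rwa [card_pow_eq_sum (pow_ne_zero _ hp.ne_zero), Nat.sum_divisors_prime_pow hp, ← hsum] at this
    · rw [← pow_succ] at h1
      exact hne (by have := ih (j + 1) _ h1 hsum; rwa [show j + 1 + k = j + (k + 1) by omega] at this)

/-- The checks on the data. -/
structure Checked (d : Data) (L B : ℕ) : Prop where
  pos : L ≠ 0
  odd : Odd d.s2 ∧ d.s2 ≠ 1
  evEven : ∀ v ∈ d.ev, Even v ∧ v ≠ 0 ∧ v < B
  primes : ∀ p < B + 1, (2 < p ∧ ∀ c < p, 2 ≤ c → p % c ≠ 0) → ∀ v ∈ d.ev,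
    (v % (p - 1) = 0 ∧ (1 + v) % p = 0) → p ∈ d.pe.map Prod.fst
  two : 2 ∈ d.pe.map Prod.fst
  isPrime : ∀ x ∈ d.pe, x.1.Prime
  powers : ∀ x ∈ d.pe, x.1 ^ x.2 ∣ L ∧ x.1 ∣ d.bigQ ∧ chain d x.1 (x.2 + 1) x.1 1 = true
  listed : ∀ m ∈ L.divisors, 2 < m → m ∈ d.M.map Prod.fst ∨ ∀ v ∈ d.ev, v % m.totient ≠ 0
  valid : ∀ x ∈ d.M, x.1.totient = x.2 ∧ 2 < x.1
  order : d.M.Pairwise fun a b => ¬ b.1 ∣ a.1
  small : (L.divisors.card + 1) * (B + d.s2 + 1) < 2 ^ 20
  run : search d (d.M.length + 1) d.M [(2, d.s2), (1, 1)] = true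

/-- A group with the prescribed set of values has the target statistics. -/
theorem counts_eq {d : Data} {L B : ℕ} (hd : Checked d L B)
    (h : ((fun m : ℕ => Nat.card {g : G // orderOf g = m}) '' Set.range (orderOf : G → ℕ)) =
      {x | x = 1 ∨ x = d.s2 ∨ x ∈ d.ev}) :
    total d.target = Nat.card G ∧
      ∀ k, ocount G k ≠ 0 → ∃ x ∈ d.target, x.1 = k ∧ ocount G k = x.2 := by
  have hval : ∀ k, ocount G k ≠ 0 → ocount G k = 1 ∨ ocount G k = d.s2 ∨ ocount G k ∈ d.ev := fun k hk => by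
    have : ocount G k ∈ (fun m : ℕ => Nat.card {g : G // orderOf g = m}) '' Set.range (orderOf : G → ℕ) :=
      ⟨k, ocount_ne_zero_iff.1 hk, rfl⟩
    rw [h] at this; exact this
  have hall : ∀ v, v = 1 ∨ v = d.s2 ∨ v ∈ d.ev → ∃ k, ocount G k = v := fun v hv => by
    have : v ∈ (fun m : ℕ => Nat.card {g : G // orderOf g = m}) '' Set.range (orderOf : G → ℕ) := by
      rw [h]; exact hv
    obtain ⟨k, -, hk⟩ := this
    exact ⟨k, hk⟩
  have hev : ∀ k, 2 < k → ocount G k ≠ 0 → ocount G k ∈ d.ev := by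
    intro k hk hne
    have he : Even (ocount G k) :=
      even_iff_two_dvd.mpr ((Nat.totient_even hk).two_dvd.trans (totient_dvd_ocount k))
    rcases hval k hne with e | e | e
    · rw [e] at he; exact absurd he (by decide)
    · rw [e] at he; exact absurd he (Nat.not_even_iff_odd.2 hd.odd.1)
    · exact e
  have h2 : ocount G 2 = d.s2 := by
    obtain ⟨k, hk⟩ := hall d.s2 (Or.inr (Or.inl rfl))
    have hne : ocount G k ≠ 0 := by rw [hk]; exact fun e => by simpa [e] using hd.odd.1
    rcases lt_trichotomy k 2 with hlt | rfl | hgt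
    · exfalso
      interval_cases k
      · obtain ⟨g, hg⟩ := ocount_ne_zero_iff.1 hne
        exact (orderOf_pos g).ne' hg
      · exact hd.odd.2 (hk.symm.trans ocount_one)
    · exact hk
    · exact absurd (hd.evEven _ (hk ▸ hev k hgt hne)).1 (Nat.not_even_iff_odd.2 hd.odd.1)
  have hp : ∀ p, p.Prime → ocount G p ≠ 0 → p ∈ d.pe.map Prod.fst := by
    intro p hp hne
    rcases hp.two_le.eq_or_lt with rfl | hp2
    · exact hd.two
    have hv := hev p hp2 hne
    have h1 : p - 1 ∣ ocount G p := by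
      have := totient_dvd_ocount (G := G) p
      rwa [Nat.totient_prime hp] at this
    have h3 : p - 1 ≤ ocount G p := Nat.le_of_dvd (Nat.pos_of_ne_zero hne) h1
    have h4 := (hd.evEven _ hv).2.2
    refine hd.primes p (by omega) ⟨hp2, fun c hc hc2 e => ?_⟩ _ hv
      ⟨Nat.mod_eq_zero_of_dvd h1, Nat.mod_eq_zero_of_dvd ?_⟩
    · rcases hp.eq_one_or_self_of_dvd c (Nat.dvd_of_mod_eq_zero e) with rfl | rfl <;> omega
    · have := CfsgLib.Counting.card_pow_eq_one_dvd (dvd_card_of_ocount hne)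
      rwa [card_pow_eq_sum hp.ne_zero, hp.sum_divisors, ocount_one, add_comm] at this
  have hL : ∀ k, ocount G k ≠ 0 → k ∣ L := by
    intro k hk
    rw [Nat.dvd_iff_prime_pow_dvd_dvd]
    intro p i hpp hpi
    rcases Nat.eq_zero_or_pos i with rfl | hi
    · simp
    obtain ⟨x, hx, rfl⟩ := List.mem_map.1 (hp p hpp (ocount_dvd hk ((dvd_pow_self p hi.ne').trans hpi)))
    obtain ⟨hxL, -, hch⟩ := hd.powers x hx
    refine (pow_dvd_pow x.1 (?_ : i ≤ x.2)).trans hxL
    by_contra hlt
    have := chain_sound h2 hev hpp (x.2 + 1) 0 1 (by rw [zero_add, pow_one]; exact hch)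
      (by simp [ocount_one])
    rw [zero_add] at this
    exact ocount_dvd hk ((pow_dvd_pow _ (by omega : x.2 + 1 ≤ i)).trans hpi) this
  have hL0 : L ≠ 0 := hd.pos
  have hcov : ∀ k, ocount G k ≠ 0 →
      k ∈ [(2, d.s2), (1, 1)].map Prod.fst ∨ k ∈ d.M.map Prod.fst := by
    intro k hk
    obtain ⟨g, hg⟩ := ocount_ne_zero_iff.1 hk
    have := orderOf_pos g
    rcases Nat.lt_or_ge 2 k with h3 | h3
    · rcases hd.listed k (Nat.mem_divisors.2 ⟨hL k hk, hL0⟩) h3 with h' | h'
      · exact Or.inr h'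
      · exact absurd (Nat.mod_eq_zero_of_dvd (totient_dvd_ocount k)) (h' _ (hev k h3 hk))
    · left
      simp only [List.map_cons, List.map_nil, List.mem_cons, List.not_mem_nil, or_false]
      omega
  have hgood : Good d G d.M [(2, d.s2), (1, 1)] := by
    refine ⟨by simp, ?_, fun x hx => ?_, hd.order, hcov⟩
    · intro x hx
      simp only [List.mem_cons, List.not_mem_nil, or_false] at hx
      rcases hx with rfl | rfl
      · refine ⟨h2, fun e => ?_⟩
        have ho := hd.odd.1
        rw [show d.s2 = 0 from e] at ho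
        exact absurd ho (by decide)
      · exact ⟨ocount_one, one_ne_zero⟩
    · obtain ⟨a, b⟩ := hd.valid x hx
      refine ⟨a, b, ?_⟩
      simp only [List.map_cons, List.map_nil, List.mem_cons, List.not_mem_nil, or_false]
      omega
  have hbig : Nat.card G < 2 ^ 20 := by
    refine lt_of_le_of_lt ?_ hd.small
    rw [card_eq_sum (G := G), ← Finset.sum_filter_ne_zero]
    refine le_trans (Finset.sum_le_card_nsmul _ _ (B + d.s2 + 1) fun k hk => ?_)
      (Nat.mul_le_mul_right _ (Nat.le_succ_of_le (Finset.card_le_card fun k hk =>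
        Nat.mem_divisors.2 ⟨hL k (Finset.mem_filter.1 hk).2, hL0⟩)))
    rcases hval k (Finset.mem_filter.1 hk).2 with e | e | e
    · omega
    · omega
    · have := (hd.evEven _ e).2.2; omega
  have hfin := search_sound ⟨hev, h2, fun v hv => hall v (Or.inr (Or.inr hv)),
    fun v hv => (hd.evEven v hv).2.1, hp, hd.isPrime, hbig, fun x hx => (hd.powers x hx).2.1⟩
    _ _ _ hd.run hgood
  refine ⟨total_eq_card hfin, fun k hk => ?_⟩
  obtain ⟨x, hx, rfl⟩ := List.mem_map.1 ((hfin.cover k hk).resolve_right (by simp))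
  exact ⟨x, hx, rfl, (hfin.val x hx).1⟩

end CfsgLib.SameOrder
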